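import Cfsg.Agent.H1.Hall
import Cfsg.Agent.H3.Integral

set_option autoImplicit false

namespace Cfsg.Agent.H1

universe u

theorem isSolvable_of_card_primeFactors_le_two (X : Type u) [Group X] [Finite X]
    (h : (Nat.card X).primeFactors.card ≤ 2) : Group.IsSolvable X := by
  have key : ∃ p q : ℕ, p.Prime ∧ q.Prime ∧ (Nat.card X).primeFactors ⊆ {p, q} := by
    have hpr : ∀ p ∈ (Nat.card X).primeFactors, p.Prime := fun p hp =>
      Nat.prime_of_mem_primeFactors hp
    generalize (Nat.card X).primeFactors = S at h hpr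
    obtain h0 | h1 | h2 : S.card = 0 ∨ S.card = 1 ∨ S.card = 2 := by omega
    · rw [Finset.card_eq_zero.mp h0]
      exact ⟨2, 2, Nat.prime_two, Nat.prime_two, Finset.empty_subset _⟩
    · obtain ⟨p, rfl⟩ := Finset.card_eq_one.mp h1
      exact ⟨p, p, hpr p (by simp), hpr p (by simp), by simp⟩
    · obtain ⟨p, q, -, rfl⟩ := Finset.card_eq_two.mp h2
      exact ⟨p, q, hpr p (by simp), hpr q (by simp), le_rfl⟩
  obtain ⟨p, q, hp, hq, hS⟩ := key
  exact H3.isSolvable_of_prime_dvd hp hq fun r hr hd => by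
    simpa using hS (Nat.mem_primeFactors.mpr ⟨hr, hd, Nat.card_pos.ne'⟩)

/-- Hall's converse. -/
theorem isSolvable_of_exists_isHall {G : Type u} [Group G] [Finite G]
    (h : ∀ p : ℕ, p.Prime → ∃ H : Subgroup G, IsHall {p}ᶜ H) : Group.IsSolvable G :=
  isSolvable_of_hall_complements isSolvable_of_card_primeFactors_le_two _ G rfl h

end Cfsg.Agent.H1
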